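import Mathlib
import Cfsg.Agent.FStar.Layer

set_option autoImplicit false
open Cfsg
open scoped commutatorElement

/-! Components modulo a central subgroup; normal closures of centreless components. -/

namespace Cfsg.Agent.H1

open FStar

/-- if `E/Z` is a component of `G/Z`, `Z` central, then `E'` is a component. -/
theorem isComponent_commutator {G : Type*} [Group G] [Finite G] (Z : Subgroup G) (hZ : Z ≤ Subgroup.center G) [Z.Normal]
    (E : Subgroup G) (hZE : Z ≤ E) (hE : Cfsg.IsComponent (E.map (QuotientGroup.mk' Z))) : Cfsg.IsComponent ⁅E, E⁆ := by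
  set π := QuotientGroup.mk' Z with hπ
  have hker : π.ker = Z := QuotientGroup.ker_mk' Z
  have hEc : (E.map π).comap π = E := by
    rw [Subgroup.comap_map_eq, hker, sup_eq_left.mpr hZE]
  have hEs : E.IsSubnormal := by
    rw [← hEc]; exact hE.1.comap π
  set L := ⁅E, E⁆ with hL
  have hmapL : L.map π = E.map π := by
    rw [hL, Subgroup.map_commutator]
    exact commutator_self hE.2
  have hLZ : L ⊔ Z = E := by
    have h1 := congrArg (Subgroup.comap π) hmapL
    rw [Subgroup.comap_map_eq, hker, hEc] at h1
    exact h1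
  have hcomm : ∀ N : Subgroup G, N ⊔ Z = E → ⁅N, N⁆ = L := by
    intro N hN
    apply le_antisymm
    · rw [hL, ← hN]; exact Subgroup.commutator_mono le_sup_left le_sup_left
    · rw [hL, ← hN]; exact commutator_sup_central_le hZ
  have hLL : ⁅L, L⁆ = L := hcomm L hLZ
  have hZc : ∀ A : Subgroup G, ⁅Z, A⁆ = ⊥ := by
    intro A
    rw [commutator_eq_bot_iff_forall]
    intro z hz a _
    exact (Subgroup.mem_center_iff.mp (hZ hz) a).symm
  refine ⟨isSubnormal_commutator_self hEs, ?_⟩
  have hne : L ≠ ⊥ := by
    intro h0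
    rw [h0, Subgroup.map_bot] at hmapL
    exact ne_bot hE.2 hmapL.symm
  haveI : Nontrivial L := (Subgroup.nontrivial_iff_ne_bot L).mpr hne
  apply isQuasisimple_of_forall
  · have h1 : (⁅(⊤ : Subgroup L), (⊤ : Subgroup L)⁆).map L.subtype = (⊤ : Subgroup L).map L.subtype := by
      rw [Subgroup.map_commutator, ← MonoidHom.range_eq_map, Subgroup.range_subtype, hLL]
    exact Subgroup.map_injective L.subtype_injective h1
  · intro N hN hNt
    set N' := N.map L.subtype with hN'
    have hN'L : N' ≤ L := Subgroup.map_subtype_le N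
    have hLN' : L ≤ Subgroup.normalizer (N' : Set G) := by
      have h1 := (Subgroup.normal_subgroupOf_iff_le_normalizer hN'L).1 (by
        rw [hN', Subgroup.subgroupOf, Subgroup.comap_map_eq_self_of_injective L.subtype_injective]
        exact hN)
      exact h1
    have hLE : L ≤ E := by rw [← hLZ]; exact le_sup_left
    have hN'E : N'.map π ≤ E.map π := Subgroup.map_mono (hN'L.trans hLE)
    -- the image of `N'` is normal in `E/Z`
    have hnorm : ((N'.map π).subgroupOf (E.map π)).Normal := by
      rw [Subgroup.normal_subgroupOf_iff_le_normalizer hN'E, ← hmapL]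
      have key : ∀ l ∈ L, ∀ x ∈ N'.map π, π l * x * (π l)⁻¹ ∈ N'.map π := by
        rintro l hl _ ⟨x, hx, rfl⟩
        exact ⟨l * x * l⁻¹, (Subgroup.mem_normalizer_iff.mp (hLN' hl) x).mp hx, by simp⟩
      intro z hz
      obtain ⟨l, hl, rfl⟩ := hz
      rw [Subgroup.mem_normalizer_iff]
      intro x
      refine ⟨key l hl x, fun h => ?_⟩
      have h1 := key l⁻¹ (inv_mem hl) _ h
      rw [map_inv] at h1
      have h2 : (π l)⁻¹ * (π l * x * (π l)⁻¹) * (π l)⁻¹⁻¹ = x := by group
      rwa [h2] at h1
    rcases eq_top_or_le_center_of_normal hE.2 _ hnorm with h1 | h1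
    · exfalso
      apply hNt
      have h2 : N'.map π = E.map π := le_antisymm hN'E (Subgroup.subgroupOf_eq_top.mp h1)
      have h3 : N' ⊔ Z = E := by
        have h4 := congrArg (Subgroup.comap π) h2
        rw [Subgroup.comap_map_eq, hker, hEc] at h4
        exact h4
      have h5 : L ≤ N' := by
        rw [← hcomm N' h3]; exact Subgroup.commutator_le_self N'
      apply Subgroup.map_injective L.subtype_injective
      rw [← hN', ← MonoidHom.range_eq_map, Subgroup.range_subtype]
      exact le_antisymm hN'L h5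
    · -- `[N', L] ≤ Z`
      have h2 : ⁅L, N'⁆ ≤ Z := by
        rw [Subgroup.commutator_le]
        intro l hl x hx
        have hx' : (⟨π x, Subgroup.mem_map_of_mem π (hLE (hN'L hx))⟩ : E.map π) ∈ (N'.map π).subgroupOf (E.map π) :=
          Subgroup.mem_subgroupOf.mpr (Subgroup.mem_map_of_mem π hx)
        have h3 := Subgroup.mem_center_iff.mp (h1 hx') ⟨π l, Subgroup.mem_map_of_mem π (hLE hl)⟩
        have h4 : π l * π x = π x * π l := congrArg Subtype.val h3
        rw [← hker, MonoidHom.mem_ker, commutatorElement_def]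
        simp only [map_mul, map_inv, h4]
        group
      have h3 : ⁅⁅L, N'⁆, L⁆ = ⊥ := by
        rw [eq_bot_iff, ← hZc L]
        exact Subgroup.commutator_mono h2 le_rfl
      have h4 := commutator_eq_bot_of_perfect hLL h3
      rw [commutator_eq_bot_iff_forall] at h4
      intro x hx
      rw [Subgroup.mem_center_iff]
      intro y
      exact Subtype.ext (h4 y y.2 x (Subgroup.mem_map_of_mem L.subtype hx))

/-- the normal closure of `K` is generated by finitely many conjugates. -/
theorem exists_finset_conj {G : Type*} [Group G] [Finite G] (K : Subgroup G) :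
    ∃ S : Finset (Subgroup G), (∀ L, L ∈ S ↔ ∃ g : G, L = K.map (MulAut.conj g).toMonoidHom) ∧
      Subgroup.normalClosure (K : Set G) ≤ S.sup id := by
  classical
  have hfin : {L : Subgroup G | ∃ g : G, L = K.map (MulAut.conj g).toMonoidHom}.Finite := Set.toFinite _
  set S : Finset (Subgroup G) := hfin.toFinset with hS
  have hmem : ∀ L, L ∈ S ↔ ∃ g : G, L = K.map (MulAut.conj g).toMonoidHom := fun L => by
    rw [hS, Set.Finite.mem_toFinset]; rfl
  refine ⟨S, hmem, ?_⟩
  rw [Subgroup.normalClosure, Subgroup.closure_le]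
  intro x hx
  obtain ⟨k, hk, g, rfl⟩ : ∃ k ∈ K, ∃ g : G, g * k * g⁻¹ = x := by
    obtain ⟨k, hk, hx⟩ := Set.mem_iUnion₂.mp hx
    obtain ⟨g, hg⟩ := isConj_iff.mp hx
    exact ⟨k, hk, g, hg⟩
  have h1 : K.map (MulAut.conj g).toMonoidHom ≤ S.sup id := Finset.le_sup (f := id) ((hmem _).mpr ⟨g, rfl⟩)
  exact h1 ⟨k, hk, rfl⟩

/-- a component with trivial centre generates a minimal normal subgroup. -/
theorem normalClosure_minimal {G : Type*} [Group G] [Finite G] (K : Subgroup G) (hK : Cfsg.IsComponent K)
    (hc : Subgroup.center K = ⊥) (N : Subgroup G) (hN : N.Normal) (hNK : N ≤ Subgroup.normalClosure (K : Set G)) :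
    N = ⊥ ∨ N = Subgroup.normalClosure (K : Set G) := by
  classical
  rcases component_le_or_commute hK (Subgroup.Normal.isSubnormal hN) with h | h
  · right
    exact le_antisymm hNK (Subgroup.normalClosure_le_normal h)
  · left
    obtain ⟨S, hmem, hcl⟩ := exists_finset_conj K
    rw [eq_bot_iff]
    intro x hx
    have h1 := mem_sup_center_aux S (fun L hL => by
      obtain ⟨g, rfl⟩ := (hmem L).mp hL
      exact (isComponent_conj g).mpr hK) x (hcl (hNK hx)) (by
      intro L hL y hy
      obtain ⟨g, rfl⟩ := (hmem L).mp hL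
      obtain ⟨k, hk, rfl⟩ := hy
      have h2 := (commutator_eq_bot_iff_forall.mp h) k hk (g⁻¹ * x * g) (by
        have := hN.conj_mem x hx g⁻¹
        rwa [inv_inv] at this)
      simp only [MulEquiv.coe_toMonoidHom, MulAut.conj_apply]
      calc x * (g * k * g⁻¹) = g * ((g⁻¹ * x * g) * k) * g⁻¹ := by group
        _ = g * (k * (g⁻¹ * x * g)) * g⁻¹ := by rw [h2]
        _ = g * k * g⁻¹ * x := by group)
    have h2 : S.sup (fun L : Subgroup G => L ⊓ Subgroup.centralizer (L : Set G)) = ⊥ := by
      rw [Finset.sup_eq_bot_iff]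
      intro L hL
      obtain ⟨g, rfl⟩ := (hmem L).mp hL
      rw [eq_bot_iff]
      intro z hz
      have hz2 : z ∈ Subgroup.centralizer ((K.map (MulAut.conj g).toMonoidHom : Subgroup G) : Set G) := hz.2
      obtain ⟨k, hk, rfl⟩ := hz.1
      have hkc := Subgroup.mem_centralizer_iff.mp hz2
      have h3 : (⟨k, hk⟩ : K) ∈ Subgroup.center K := by
        rw [Subgroup.mem_center_iff]
        intro y
        have h4 := hkc (g * y * g⁻¹) ⟨y, y.2, rfl⟩
        simp only [MulEquiv.coe_toMonoidHom, MulAut.conj_apply] at h4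
        apply Subtype.ext
        show (y : G) * k = k * y
        calc (y : G) * k = g⁻¹ * (g * y * g⁻¹ * (g * k * g⁻¹)) * g := by group
          _ = g⁻¹ * (g * k * g⁻¹ * (g * y * g⁻¹)) * g := by rw [h4]
          _ = k * y := by group
      rw [hc, Subgroup.mem_bot] at h3
      have h5 : k = 1 := congrArg Subtype.val h3
      rw [h5, map_one]
      exact one_mem _
    rw [h2] at h1
    exact h1

end Cfsg.Agent.H1
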